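import Mathlib

/-! Joint eigenspaces of involutions, fixed lines, matrix coefficients. -/

set_option autoImplicit false

namespace Cfsg.Agent.Gr.R4

open Module

variable {F : Type*} [Field F] {U U' : Type*} [AddCommGroup U] [Module F U] [AddCommGroup U'] [Module F U']

/-- The sign attached to a residue modulo two. -/
def sg (F : Type*) [Field F] (a : ZMod 2) : F := if a = 0 then 1 else -1

theorem z2c (a : ZMod 2) : a = 0 ∨ a = 1 := by revert a; decide

@[simp] theorem sg_zero : sg F 0 = 1 := if_pos rfl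

@[simp] theorem sg_one : sg F 1 = -1 := if_neg (by decide)

theorem sg_add (a b : ZMod 2) : sg F (a + b) = sg F a * sg F b := by
  rcases z2c a with rfl | rfl <;> rcases z2c b with rfl | rfl <;> simp [show (1 + 1 : ZMod 2) = 0 from rfl]

theorem sg_mul_self (a : ZMod 2) : sg F a * sg F a = 1 := by rcases z2c a with rfl | rfl <;> simp

theorem sg_ne_zero (a : ZMod 2) : sg F a ≠ 0 := left_ne_zero_of_mul_eq_one (sg_mul_self a)

theorem sg_smul_sg (a : ZMod 2) (u : U) : sg F a • sg F a • u = u := by rw [smul_smul, sg_mul_self, one_smul]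

theorem one_ne_neg (h : (2 : F) ≠ 0) : (1 : F) ≠ -1 := fun e => h (by linear_combination e)

theorem sg_inj (h : (2 : F) ≠ 0) {a b : ZMod 2} (e : sg F a = sg F b) : a = b := by
  rcases z2c a with rfl | rfl <;> rcases z2c b with rfl | rfl <;> simp_all [one_ne_neg h, (one_ne_neg h).symm]

theorem eq_zero_of_neg (h : (2 : F) ≠ 0) {u : U} (e : u = -u) : u = 0 :=
  (smul_eq_zero.1 (show (2 : F) • u = 0 by rw [two_smul]; nth_rewrite 2 [e]; exact add_neg_cancel u)).resolve_left h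

theorem eq_of_sg (h : (2 : F) ≠ 0) {u : U} (hu : u ≠ 0) {a b : ZMod 2} (e : sg F a • u = sg F b • u) : a = b :=
  sg_inj h (smul_left_injective F hu e)

theorem mem_of_halves (h : (2 : F) ≠ 0) {P : Submodule F U} {u x : U} (h1 : u + x ∈ P) (h2 : u - x ∈ P) : u ∈ P := by
  have := P.smul_mem (2 : F)⁻¹ (P.add_mem h1 h2)
  rwa [add_add_sub_cancel, ← two_smul F, smul_smul, inv_mul_cancel₀ h, one_smul] at this

/-- Commuting involutions: joint eigenvectors span. -/
theorem le_of_eig (h : (2 : F) ≠ 0) {ι : Type*} [Finite ι] (s : ι → End F U) {W P : Submodule F U}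
    (h1 : ∀ i, ∀ u ∈ W, s i u ∈ W) (h2 : ∀ i, ∀ u ∈ W, s i (s i u) = u)
    (h3 : ∀ i j, ∀ u ∈ W, s i (s j u) = s j (s i u))
    (h4 : ∀ x ∈ W, x ≠ 0 → ∀ χ : ι → ZMod 2, (∀ i, s i x = sg F (χ i) • x) → x ∈ P) : W ≤ P := by
  classical
  have key : ∀ (I : Finset ι) (W : Submodule F U), (∀ i, ∀ u ∈ W, s i u ∈ W) → (∀ i, ∀ u ∈ W, s i (s i u) = u) →
      (∀ i j, ∀ u ∈ W, s i (s j u) = s j (s i u)) →
      (∀ x ∈ W, (∀ i ∈ I, ∃ e, s i x = sg F e • x) → x ∈ P) → W ≤ P := by
    intro I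
    induction I using Finset.induction_on with
    | empty => exact fun W _ _ _ k x hx => k x hx (by simp)
    | insert a I _ ih =>
      intro W k1 k2 k3 k4 u hu
      have : ∀ e, W ⊓ LinearMap.eqLocus (s a) (sg F e • 1) ≤ P := fun e =>
        ih _ (fun i x hx => ⟨k1 i x hx.1, by
          have : s a x = sg F e • x := hx.2
          change s a (s i x) = sg F e • s i x
          rw [k3 _ _ _ hx.1, this, map_smul]⟩) (fun i x hx => k2 i x hx.1) (fun i j x hx => k3 i j x hx.1)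
          fun x hx k => k4 x hx.1 fun i hi => (Finset.mem_insert.1 hi).elim (fun q => ⟨e, q ▸ hx.2⟩) (k i)
      refine mem_of_halves h (x := s a u) (this 0 ⟨W.add_mem hu (k1 a u hu), ?_⟩)
        (this 1 ⟨W.sub_mem hu (k1 a u hu), ?_⟩)
      · change s a _ = sg F 0 • (u + s a u)
        rw [map_add, k2 a u hu, sg_zero, one_smul, add_comm]
      · change s a _ = sg F 1 • (u - s a u)
        rw [map_sub, k2 a u hu, sg_one, neg_one_smul, neg_sub]
  have := Fintype.ofFinite ι
  refine key Finset.univ W h1 h2 h3 fun x hx k => ?_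
  choose χ hχ using fun i => k i (Finset.mem_univ i)
  by_cases e : x = 0
  · exact e ▸ P.zero_mem
  · exact h4 x hx e χ hχ

/-- Joint eigenspaces with different eigenvalues are independent. -/
theorem sum_finrank_le [FiniteDimensional F U] {ι κ : Type*} (I : Finset ι) (V : ι → Submodule F U)
    (s : κ → End F U) (χ : ι → κ → F) (h1 : ∀ i ∈ I, ∀ u ∈ V i, ∀ k, s k u = χ i k • u)
    (h2 : ∀ i ∈ I, ∀ j ∈ I, χ i = χ j → i = j) {W : Submodule F U} (h3 : ∀ i ∈ I, V i ≤ W) :
    ∑ i ∈ I, finrank F (V i) ≤ finrank F W := by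
  classical
  have op : ∀ a ∈ I, ∀ J : Finset ι, J ⊆ I → a ∉ J → ∃ (T : End F U) (c : ι → F),
      (∀ j ∈ I, ∀ u ∈ V j, T u = c j • u) ∧ c a ≠ 0 ∧ ∀ j ∈ J, c j = 0 := fun a ha J => by
    induction J using Finset.induction_on with
    | empty => exact fun _ _ => ⟨1, 1, fun _ _ _ _ => (one_smul _ _).symm, one_ne_zero, by simp⟩
    | insert b J _ ih =>
      intro k1 k2
      obtain ⟨T, c, c1, c2, c3⟩ := ih (fun _ h => k1 (Finset.mem_insert_of_mem h))
        fun h => k2 (Finset.mem_insert_of_mem h)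
      obtain ⟨k, hk⟩ := Function.ne_iff.1 (mt (h2 a ha b (k1 (Finset.mem_insert_self _ _)))
        fun e => k2 (e ▸ Finset.mem_insert_self _ _))
      refine ⟨T * (s k - χ b k • 1), fun j => (χ j k - χ b k) * c j, fun j hj u hu => ?_,
        mul_ne_zero (sub_ne_zero.2 hk) c2, fun j hj => ?_⟩
      · simp only [End.mul_apply, LinearMap.sub_apply, LinearMap.smul_apply, End.one_apply, h1 j hj u hu,
          ← sub_smul, map_smul, c1 j hj u hu, smul_smul]
      · rcases Finset.mem_insert.1 hj with rfl | hj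
        · simp
        · simp [c3 j hj]
  have key : ∀ J : Finset ι, J ⊆ I → ∑ i ∈ J, finrank F (V i) = finrank F ↥(J.sup V) := fun J => by
    induction J using Finset.induction_on with
    | empty => intro _; rw [Finset.sum_empty, Finset.sup_empty, finrank_bot]
    | insert a J ha ih =>
      intro k
      have k' : J ⊆ I := fun _ h => k (Finset.mem_insert_of_mem h)
      obtain ⟨T, c, c1, c2, c3⟩ := op a (k (Finset.mem_insert_self _ _)) J k' ha
      have d : V a ⊓ J.sup V = ⊥ := eq_bot_iff.2 fun u hu => by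
        have : J.sup V ≤ LinearMap.ker T := Finset.sup_le fun j hj x hx => by
          rw [LinearMap.mem_ker, c1 j (k' hj) x hx, c3 j hj, zero_smul]
        have := this hu.2
        rw [LinearMap.mem_ker, c1 a (k (Finset.mem_insert_self _ _)) u hu.1] at this
        exact (smul_eq_zero.1 this).resolve_left c2
      rw [Finset.sum_insert ha, Finset.sup_insert, ih k', ← Submodule.finrank_sup_add_finrank_inf_eq, d, finrank_bot,
        add_zero]
  rw [key I le_rfl]
  exact Submodule.finrank_mono (Finset.sup_le h3)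

theorem one_le_finrank [FiniteDimensional F U] {V : Submodule F U} (h : V ≠ ⊥) : 1 ≤ finrank F V :=
  Nat.one_le_iff_ne_zero.2 fun e => h (Submodule.finrank_eq_zero.1 e)

theorem ex_smul [FiniteDimensional F U] {V : Submodule F U} (h : finrank F V ≤ 1) {u x : U} (hu : u ∈ V)
    (h0 : u ≠ 0) (hx : x ∈ V) : ∃ a : F, x = a • u := by
  have : Submodule.span F {u} = V := Submodule.eq_of_le_of_finrank_le ((Submodule.span_singleton_le_iff_mem _ _).2 hu)
    (by rwa [finrank_span_singleton h0])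
  obtain ⟨a, e⟩ := Submodule.mem_span_singleton.1 (this ▸ hx)
  exact ⟨a, e.symm⟩

section Rep

variable {G : Type*} [Group G] (ρ : G →* End F U) (ρ' : G →* End F U')

theorem ap_mul (g h : G) (u : U) : ρ (g * h) u = ρ g (ρ h u) := by rw [map_mul]; rfl

@[simp] theorem ap_inv (g : G) (u : U) : ρ g⁻¹ (ρ g u) = u := by rw [← ap_mul, inv_mul_cancel, map_one]; rfl

@[simp] theorem ap_inv' (g : G) (u : U) : ρ g (ρ g⁻¹ u) = u := by rw [← ap_mul, mul_inv_cancel, map_one]; rfl

theorem ap_inj (g : G) : Function.Injective (ρ g) := fun a b e => by rw [← ap_inv ρ g a, e, ap_inv]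

theorem ap_ne (g : G) {u : U} (h : u ≠ 0) : ρ g u ≠ 0 := fun e => h (ap_inj ρ g (e.trans (map_zero _).symm))

theorem ap_conj {g x y : G} (e : g * x * g⁻¹ = y) (u : U) : ρ y (ρ g u) = ρ g (ρ x u) := by
  rw [← e, ← ap_mul, ← ap_mul, inv_mul_cancel_right]

theorem ap_comm {g x : G} (e : Commute g x) (u : U) : ρ x (ρ g u) = ρ g (ρ x u) := by
  rw [← ap_mul, ← ap_mul, e.eq]

theorem finrank_le_of_map [FiniteDimensional F U] (g : G) {V W : Submodule F U} (h : ∀ u ∈ V, ρ g u ∈ W) :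
    finrank F V ≤ finrank F W :=
  LinearMap.finrank_le_finrank_of_injective (f := (ρ g).restrict h) fun _ _ e =>
    Subtype.ext (ap_inj ρ g (congrArg Subtype.val e))

/-- The stabiliser of a vector. -/
def Fx (u : U) : Subgroup G where
  carrier := {g | ρ g u = u}
  mul_mem' {a b} ha hb := by
    change ρ _ u = u
    rw [ap_mul, hb, ha]
  one_mem' := by change ρ 1 u = u; rw [map_one]; rfl
  inv_mem' {a} ha := by
    change ρ _ u = u
    nth_rewrite 1 [← show ρ a u = u from ha]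
    exact ap_inv _ _ _

theorem mem_Fx {u : U} {g : G} : g ∈ Fx ρ u ↔ ρ g u = u := Iff.rfl

theorem conj_mem_Fx {u : U} {g x : G} (hg : ∃ a : F, ρ g u = a • u) (hx : x ∈ Fx ρ u) : g * x * g⁻¹ ∈ Fx ρ u := by
  obtain ⟨a, e⟩ := hg
  by_cases h0 : u = 0
  · rw [mem_Fx, h0, map_zero]
  have a0 : a ≠ 0 := fun q => ap_ne ρ g h0 (by rw [e, q, zero_smul])
  have : ρ g⁻¹ u = a⁻¹ • u := by rw [eq_inv_smul_iff₀ a0, ← map_smul, ← e, ap_inv]
  rw [mem_Fx, ap_mul, ap_mul, this, map_smul, hx, ← this, ap_inv']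

theorem comm_mem_Fx {u : U} {g h : G} (hg : ∃ a : F, ρ g u = a • u) (hh : ∃ a : F, ρ h u = a • u) :
    g * h * g⁻¹ * h⁻¹ ∈ Fx ρ u := by
  have : (h * g)⁻¹ * (g * h) ∈ Fx ρ u := by
    obtain ⟨a, ha⟩ := hg
    obtain ⟨b, hb⟩ := hh
    rw [mem_Fx, ap_mul, ap_mul ρ g, hb, map_smul, ha, smul_comm, ← hb, ← map_smul, ← ha, ← ap_mul ρ h, ap_inv]
  have := conj_mem_Fx ρ hh (conj_mem_Fx ρ hg this)
  rwa [show h * (g * ((h * g)⁻¹ * (g * h)) * g⁻¹) * h⁻¹ = g * h * g⁻¹ * h⁻¹ by group] at this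

/-- A line on which the kernel of a map onto a nonabelian simple group is trivial is fixed pointwise. -/
theorem fix_of_simple {B : Type*} [Group B] [IsSimpleGroup B] [Finite B] (hB : ¬ (Nat.card B).Prime) (φ : G →* B)
    (hφ : Function.Surjective φ) {u : U} (h1 : ∀ g, φ g = 1 → ρ g u = u) (h2 : ∀ g, ∃ a : F, ρ g u = a • u)
    (g : G) : ρ g u = u := by
  have hn : (Fx ρ u).Normal := ⟨fun x hx g => conj_mem_Fx ρ (h2 g) hx⟩
  rcases (hn.map φ hφ).eq_bot_or_eq_top with e | e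
  · refine absurd ?_ hB
    let : CommGroup B := { (inferInstance : Group B) with
      mul_comm := fun a b => by
        obtain ⟨a, rfl⟩ := hφ a
        obtain ⟨b, rfl⟩ := hφ b
        have := e.le (Subgroup.mem_map_of_mem φ (comm_mem_Fx ρ (h2 a) (h2 b)))
        rwa [Subgroup.mem_bot, map_mul, map_mul, map_mul, map_inv, map_inv, mul_inv_eq_one, mul_inv_eq_iff_eq_mul]
          at this }
    exact IsSimpleGroup.prime_card
  · obtain ⟨n, hn, k⟩ := e.ge (Subgroup.mem_top (φ g))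
    rw [← mul_inv_cancel_left n g, ap_mul, h1 _ (by rw [map_mul, map_inv, k, inv_mul_cancel]), hn]

theorem coeff_aux (h : ∀ W : Submodule F U, (∀ g, ∀ u ∈ W, ρ g u ∈ W) → W = ⊥ ∨ W = ⊤) {v : U} {f : U →ₗ[F] F}
    (hv : v ≠ 0) (hf : f ≠ 0) : Function.Injective (LinearMap.pi fun g => f ∘ₗ ρ g : U →ₗ[F] G → F) ∧
      LinearMap.range (LinearMap.pi fun g => f ∘ₗ ρ g : U →ₗ[F] G → F) =
        Submodule.span F (Set.range fun k g => f (ρ (g * k) v)) := by
  refine ⟨LinearMap.ker_eq_bot.1 ((h _ fun g u hu => funext fun k => ?_).resolve_right fun q => hf ?_), ?_⟩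
  · exact (congrArg f (ap_mul ρ k g u).symm).trans (congrFun hu (k * g))
  · exact LinearMap.ext fun u => by simpa using congrFun (q.ge (Submodule.mem_top (x := u))) 1
  have : Submodule.span F (Set.range fun k => ρ k v) = ⊤ := (h _ fun g u hu => (Submodule.span_le (p :=
    Submodule.comap (ρ g) _)).2 (by rintro _ ⟨k, rfl⟩; exact Submodule.subset_span ⟨g * k, ap_mul ρ g k v⟩)
      hu).resolve_left fun q => hv (q.le (Submodule.subset_span ⟨1, by simp⟩))
  rw [LinearMap.range_eq_map, ← this, Submodule.map_span, ← Set.range_comp]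
  exact congrArg _ (congrArg _ (funext fun k => funext fun g => congrArg f (ap_mul ρ g k v).symm))

/-- Two irreducible modules with a common matrix coefficient are isomorphic. -/
theorem equiv_of_coeff (h : ∀ W : Submodule F U, (∀ g, ∀ u ∈ W, ρ g u ∈ W) → W = ⊥ ∨ W = ⊤)
    (h' : ∀ W : Submodule F U', (∀ g, ∀ u ∈ W, ρ' g u ∈ W) → W = ⊥ ∨ W = ⊤) {v : U} {v' : U'} {f : U →ₗ[F] F}
    {f' : U' →ₗ[F] F} (hv : v ≠ 0) (hv' : v' ≠ 0) (hf : f ≠ 0) (hf' : f' ≠ 0) (e : ∀ g, f (ρ g v) = f' (ρ' g v')) :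
    ∃ P : U ≃ₗ[F] U', ∀ g u, P (ρ g u) = ρ' g (P u) := by
  obtain ⟨a1, a2⟩ := coeff_aux ρ h hv hf
  obtain ⟨b1, b2⟩ := coeff_aux ρ' h' hv' hf'
  simp only [e] at a2
  let P := (LinearEquiv.ofInjective _ a1).trans ((LinearEquiv.ofEq _ _ (a2.trans b2.symm)).trans
    (LinearEquiv.ofInjective _ b1).symm)
  have hP : ∀ u g, f' (ρ' g (P u)) = f (ρ g u) := fun u g =>
    congrFun (congrArg Subtype.val ((LinearEquiv.ofInjective _ b1).apply_symm_apply _)) g
  refine ⟨P, fun g u => b1 (funext fun k => ?_)⟩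
  change f' (ρ' k _) = f' (ρ' k _)
  rw [hP, ← ap_mul, ← ap_mul, hP]

end Rep

end Cfsg.Agent.Gr.R4
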